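import Cfsg.Agent.H18.O7.Gen

/-!
Checking conjugations by explicit matrices outside the parabolic subgroup.
-/

set_option autoImplicit false
set_option linter.unusedSimpArgs false

namespace Cfsg.Agent.H18.O7

open Matrix

def permImg : I7 → I7
  | .inr (.inl 0) => .inr (.inl 1)
  | .inr (.inl 1) => .inr (.inr 0)
  | .inr (.inr 0) => .inr (.inr 1)
  | .inr (.inr 1) => .inr (.inl 0)
  | i => i

def permInv : I7 → I7
  | .inr (.inl 1) => .inr (.inl 0)
  | .inr (.inr 0) => .inr (.inl 1)
  | .inr (.inr 1) => .inr (.inr 0)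
  | .inr (.inl 0) => .inr (.inr 1)
  | i => i

def sMat : M7 := Matrix.of fun i j => if i = permImg j then 1 else 0
def sMat' : M7 := Matrix.of fun i j => if i = permInv j then 1 else 0

def wMat : M7 := Matrix.of fun i j => if i = permImg (permImg j) then 1 else 0

def sGL : Matrix.GeneralLinearGroup I7 K where
  val := sMat
  inv := sMat'
  val_inv := by decide +kernel
  inv_val := by decide +kernel

theorem sMat_isometry (x : I7 → K) : qf (sMat *ᵥ x) = qf x := by
  simp [qf, Cfsg.quadFormOdd, sMat, permImg, Matrix.mulVec, dotProduct, Fintype.sum_sum_type,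
    Fin.sum_univ_three]
  ring

def sO : O7 := ⟨sGL, fun u _ => sMat_isometry u⟩

def wO : O7 := sO * sO

theorem wMat_eq : ((wO : Matrix.GeneralLinearGroup I7 K) : M7) = wMat := by
  change sMat * sMat = wMat
  decide +kernel

/-- Letters: `w`, Levi elements and radical elements. -/
inductive Letter
  | w
  | lev (A A' : M3)
  | rad (v : V6)

def Letter.mat : Letter → M7
  | .w => wMat
  | .lev A A' => lMat A A'
  | .rad v => rMat v

def Letter.ok : Letter → Bool
  | .lev A A' => decide (A * A' = 1) && decide (A' * A = 1) && decide (det3 A = 1)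
  | _ => true

theorem Letter.exists_mem (l : Letter) (h : l.ok = true) :
    ∃ g ∈ Om, ((g : Matrix.GeneralLinearGroup I7 K) : M7) = l.mat := by
  cases l with
  | w => exact ⟨wO, sq_mem_Om sO, wMat_eq⟩
  | rad v => exact ⟨rO v, rO_mem_Om v, rfl⟩
  | lev A A' =>
    simp only [Letter.ok, Bool.and_eq_true, decide_eq_true_eq] at h
    exact ⟨lO (mkU A A' h.1.1 h.1.2), lO_mem_Om ((det3_eq A).trans h.2), rfl⟩

def toM (L : List (List ℕ)) : M7 := Matrix.of fun i j =>
  let idx : I7 → ℕ := Sum.elim (fun _ => 0) (Sum.elim (fun k => 1 + k.val) (fun k => 4 + k.val))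
  ((((L.getD (idx i) [])).getD (idx j) 0 : ℕ) : K)

def GoodM (M : M7) : Prop := ∀ g : O7, ((g : Matrix.GeneralLinearGroup I7 K) : M7) = M → Good g

theorem goodM_step {M M' : M7} (l : Letter) (hl : l.ok = true) (e : l.mat * M = M' * l.mat)
    (h : GoodM M') : GoodM M := by
  intro g hg
  obtain ⟨c, hc, hcm⟩ := l.exists_mem hl
  refine (h (c * g * c⁻¹) ?_).of_conj hc rfl
  have h1 : ((c : Matrix.GeneralLinearGroup I7 K) : M7) *
      ((g : Matrix.GeneralLinearGroup I7 K) : M7) =
      M' * ((c : Matrix.GeneralLinearGroup I7 K) : M7) := by rw [hcm, hg, e]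
  simp only [Subgroup.coe_mul, Subgroup.coe_inv, Units.val_mul]
  rw [h1, Matrix.mul_assoc, Units.mul_inv, Matrix.mul_one]

def gelMat (j : Fin 3) (v : V6) : M7 := lMat (jordan j).val (jordan j).inv * rMat v

theorem goodM_rep {M : M7} (k : Fin 7) (j : Fin 3) (v : V6) (hk : rep k = gel j v)
    (e : gelMat j v = M) : GoodM M := by
  intro g hg
  refine Or.inr ⟨k, 1, one_mem _, ?_⟩
  have : g = rep k := Subtype.ext <| Units.ext <| by rw [hg, hk, ← e]; rfl
  rw [this]; simp

theorem good_of_goodM {M : M7} {j : Fin 3} {v : V6} (e : gelMat j v = M) (h : GoodM M) :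
    Good (gel j v) := h _ (by rw [← e]; rfl)

end Cfsg.Agent.H18.O7
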