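import Cfsg.Agent.H18.O7.Levi

/-!
Conjugation moves on the elements `L(J) r(v)` of the parabolic subgroup and the notion of being
conjugate to one of the seven representatives.
-/

set_option autoImplicit false
set_option maxRecDepth 4000

namespace Cfsg.Agent.H18.O7

open Matrix

def mkU (A A' : M3) (h1 : A * A' = 1) (h2 : A' * A = 1) : M3ˣ := ⟨A, A', h1, h2⟩

/-- The three unipotent classes of the Levi complement. -/
def jordan : Fin 3 → M3ˣ
  | 0 => 1
  | 1 => mkU !![1, 1, 0; 0, 1, 0; 0, 0, 1] !![1, 2, 0; 0, 1, 0; 0, 0, 1]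
      (by decide +kernel) (by decide +kernel)
  | 2 => mkU !![1, 1, 0; 0, 1, 1; 0, 0, 1] !![1, 2, 1; 0, 1, 2; 0, 0, 1]
      (by decide +kernel) (by decide +kernel)

theorem jordan_cube (j : Fin 3) : jordan j * jordan j * jordan j = 1 := by
  apply units_ext_of_val
  revert j
  decide +kernel

def gel (j : Fin 3) (v : V6) : O7 := lO (jordan j) * rO v

/-- The seven representatives. -/
def rep : Fin 7 → O7
  | 0 => gel 0 (0, 0, 0, 0, 0, 1)
  | 1 => gel 0 (0, 0, 1, 0, 0, 0)
  | 2 => gel 1 (0, 0, 0, 2, 0, 0)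
  | 3 => gel 0 (0, 0, 1, 1, 0, 0)
  | 4 => gel 0 (0, 0, 1, 2, 0, 0)
  | 5 => gel 2 (0, 0, 0, 0, 0, 0)
  | 6 => gel 1 (0, 0, 1, 1, 0, 0)

/-- Conjugate under `Ω` to a representative, or trivial. -/
def Good (g : O7) : Prop := g = 1 ∨ ∃ k : Fin 7, ∃ h ∈ Om, h * g * h⁻¹ = rep k

theorem Good.of_conj {g g' h : O7} (hh : h ∈ Om) (e : h * g * h⁻¹ = g') (hg : Good g') :
    Good g := by
  rcases hg with rfl | ⟨k, c, hc, hk⟩
  · left
    rwa [mul_inv_eq_one, mul_eq_left] at e
  · refine Or.inr ⟨k, c * h, mul_mem hc hh, ?_⟩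
    rw [← hk, ← e]
    group

theorem rO_mem_Om (v : V6) : rO v ∈ Om := by
  apply mem_Om_of_cube
  rw [rO_mul, rO_mul, ← rO_zero]
  congr 1
  obtain ⟨a0, a1, a2, s0, s1, s2⟩ := v
  simp only [rmul, Prod.mk.injEq]
  refine ⟨?_, ?_, ?_, ?_, ?_, ?_⟩ <;> ring_nf <;> simp [show (3 : K) = 0 by decide]

theorem lO_conj_rO (A : M3ˣ) (v : V6) : lO A * rO v * (lO A)⁻¹ = rO (act A.val v) := by
  rw [lO_mul_rO, mul_inv_cancel_right]

/-- The effect of conjugation by an element of the radical. -/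
def moveR (j : Fin 3) (e v : V6) : V6 := rmul (rmul (act (jordan j).inv e) v) (rneg e)

theorem moveR_spec (j : Fin 3) (e v : V6) :
    rO e * gel j v * (rO e)⁻¹ = gel j (moveR j e v) := by
  have h : rO e * lO (jordan j) = lO (jordan j) * rO (act (jordan j).inv e) := by
    have h1 := lO_conj_rO (jordan j)⁻¹ e
    rw [map_inv, inv_inv] at h1
    change _ = rO (act (jordan j).inv e) at h1
    rw [← h1]
    group
  rw [gel, gel, moveR, ← rO_mul, ← rO_mul, ← rO_inv, ← mul_assoc, h]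
  group

/-- Generators of the centralizers of the Jordan forms. -/
def cgen : Fin 3 → List (M3 × M3)
  | 0 => [(!![0, 0, 1; 0, 1, 0; 2, 0, 2], !![2, 0, 2; 0, 1, 0; 1, 0, 0]),
      (!![0, 0, 1; 0, 1, 0; 2, 1, 2], !![2, 1, 2; 0, 1, 0; 1, 0, 0]),
      (!![0, 0, 1; 0, 1, 1; 2, 0, 2], !![2, 0, 2; 2, 1, 0; 1, 0, 0])]
  | 1 => [(!![1, 0, 0; 0, 1, 0; 0, 1, 1], !![1, 0, 0; 0, 1, 0; 0, 2, 1]),
      (!![1, 0, 1; 0, 1, 0; 0, 0, 1], !![1, 0, 2; 0, 1, 0; 0, 0, 1]),
      (!![2, 0, 0; 0, 2, 0; 0, 0, 1], !![2, 0, 0; 0, 2, 0; 0, 0, 1])]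
  | 2 => [(!![1, 0, 1; 0, 1, 0; 0, 0, 1], !![1, 0, 2; 0, 1, 0; 0, 0, 1]),
      (!![1, 1, 0; 0, 1, 1; 0, 0, 1], !![1, 2, 1; 0, 1, 2; 0, 0, 1])]

def det3 (A : M3) : K :=
  A 0 0 * A 1 1 * A 2 2 - A 0 0 * A 1 2 * A 2 1 - A 0 1 * A 1 0 * A 2 2
    + A 0 1 * A 1 2 * A 2 0 + A 0 2 * A 1 0 * A 2 1 - A 0 2 * A 1 1 * A 2 0

theorem det3_eq (A : M3) : A.det = det3 A := by
  rw [Matrix.det_fin_three]
  rfl

theorem cgen_check : ∀ j, (cgen j).all (fun c => decide (c.1 * c.2 = 1) &&
    decide (c.2 * c.1 = 1) && decide (det3 c.1 = 1) &&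
    decide (c.1 * (jordan j).val = (jordan j).val * c.1)) = true := by
  decide +kernel

theorem cgen_spec (j : Fin 3) (c : M3 × M3) (hc : c ∈ cgen j) :
    c.1 * c.2 = 1 ∧ c.2 * c.1 = 1 ∧ c.1.det = 1 ∧
      c.1 * (jordan j).val = (jordan j).val * c.1 := by
  have h := List.all_eq_true.1 (cgen_check j) c hc
  simp only [Bool.and_eq_true, decide_eq_true_eq] at h
  exact ⟨h.1.1.1, h.1.1.2, (det3_eq _).trans h.1.2, h.2⟩

def unitVec : ℕ → V6
  | 0 => (1, 0, 0, 0, 0, 0)
  | 1 => (0, 1, 0, 0, 0, 0)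
  | 2 => (0, 0, 1, 0, 0, 0)
  | 3 => (0, 0, 0, 1, 0, 0)
  | 4 => (0, 0, 0, 0, 1, 0)
  | _ => (0, 0, 0, 0, 0, 1)

/-- The moves: conjugation by the radical generators and by centralizer generators. -/
def move (j : Fin 3) (m : ℕ) (v : V6) : V6 :=
  if m < 6 then moveR j (unitVec m) v
  else match (cgen j)[m - 6]? with
    | some c => act c.1 v
    | none => v

theorem move_spec (j : Fin 3) (m : ℕ) (v : V6) (h : Good (gel j (move j m v))) :
    Good (gel j v) := by
  unfold move at h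
  split_ifs at h with hm
  · exact h.of_conj (rO_mem_Om _) (moveR_spec j (unitVec m) v)
  · split at h
    · rename_i c hc
      obtain ⟨h1, h2, hd, hcomm⟩ := cgen_spec j c (List.mem_of_getElem? hc)
      have hcu : mkU c.1 c.2 h1 h2 * jordan j = jordan j * mkU c.1 c.2 h1 h2 :=
        units_ext_of_val hcomm
      refine h.of_conj (lO_mem_Om (u := mkU c.1 c.2 h1 h2) hd) ?_
      change _ = lO (jordan j) * rO (act (mkU c.1 c.2 h1 h2).val v)
      rw [← lO_conj_rO, gel, ← mul_assoc, ← map_mul, hcu, map_mul]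
      group
    · exact h

/-- Cube of `gel`. -/
def cubeV (j : Fin 3) (v : V6) : V6 :=
  rmul (rmul (act ((jordan j).inv * (jordan j).inv) v) (act (jordan j).inv v)) v

theorem cube_gel (j : Fin 3) (v : V6) : gel j v * gel j v * gel j v = rO (cubeV j v) := by
  have e : ∀ (a r : O7), a * a * a = 1 →
      a * r * (a * r) * (a * r) = (a⁻¹ * a⁻¹ * r * (a⁻¹ * a⁻¹)⁻¹) * (a⁻¹ * r * a⁻¹⁻¹) * r := by
    intro a r h
    have h' : a = a⁻¹ * a⁻¹ := by
      calc a = a⁻¹ * a⁻¹ * (a * a * a) := by group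
        _ = a⁻¹ * a⁻¹ := by rw [h, mul_one]
    conv_lhs => enter [1, 1, 1]; rw [h']
    group
  have hc : lO (jordan j) * lO (jordan j) * lO (jordan j) = 1 := by
    rw [← map_mul, ← map_mul, jordan_cube, map_one]
  simp only [gel]
  rw [e _ _ hc, cubeV, ← rO_mul, ← rO_mul, ← map_inv, ← map_mul, lO_conj_rO, lO_conj_rO]
  rfl

def enc (v : V6) : ℕ :=
  v.1.val * 243 + v.2.1.val * 81 + v.2.2.1.val * 27 + v.2.2.2.1.val * 9 + v.2.2.2.2.1.val * 3
    + v.2.2.2.2.2.val

def dec (n : ℕ) : V6 :=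
  ((n / 243 : ℕ), (n / 81 : ℕ), (n / 27 : ℕ), (n / 9 : ℕ), (n / 3 : ℕ), (n : ℕ))

theorem dec_enc : ∀ v, dec (enc v) = v := by decide +kernel

/-- Replay of a reachability certificate. -/
def replay (mv : ℕ → V6 → V6) : List (ℕ × ℕ) → ℕ → Option ℕ
  | [], vis => some vis
  | (c, m) :: l, vis =>
    if vis.testBit (enc (mv m (dec c))) then replay mv l (vis ||| 1 <<< c) else none

theorem replay_sound {j : Fin 3} : ∀ (l : List (ℕ × ℕ)) (vis r : ℕ),
    (∀ c, vis.testBit c = true → Good (gel j (dec c))) → replay (move j) l vis = some r →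
    ∀ c, r.testBit c = true → Good (gel j (dec c))
  | [], vis, r, hv, hr, c, hc => by
    simp only [replay, Option.some.injEq] at hr
    exact hv c (hr ▸ hc)
  | (d, m) :: l, vis, r, hv, hr, c, hc => by
    simp only [replay] at hr
    split_ifs at hr with h
    refine replay_sound l _ r (fun e he => ?_) hr c hc
    rw [Nat.testBit_or, Bool.or_eq_true] at he
    rcases he with he | he
    · exact hv e he
    · rw [Nat.one_shiftLeft, Nat.testBit_two_pow] at he
      obtain rfl : d = e := by simpa using he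
      apply move_spec j m
      have := hv _ h
      rwa [dec_enc] at this

/-- A checked certificate covers all elements of order dividing three in a coset. -/
theorem good_of_cert {j : Fin 3} (l : List (ℕ × ℕ)) (roots : List ℕ)
    (hroots : ∀ c ∈ roots, Good (gel j (dec c)))
    (r : ℕ) (hr : replay (move j) l (roots.foldl (fun a c => a ||| 1 <<< c) 0) = some r)
    (hcov : ∀ v, cubeV j v = (0, 0, 0, 0, 0, 0) → r.testBit (enc v) = true)
    (v : V6) (hv : gel j v * gel j v * gel j v = 1) : Good (gel j v) := by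
  have hinj : cubeV j v = (0, 0, 0, 0, 0, 0) := by
    rw [cube_gel, ← rO_zero] at hv
    have hm : rMat (cubeV j v) = rMat (0, 0, 0, 0, 0, 0) :=
      congrArg (fun g : O7 => ((g : Matrix.GeneralLinearGroup I7 K) : M7)) hv
    revert hm
    generalize cubeV j v = w
    intro hm
    obtain ⟨a0, a1, a2, s0, s1, s2⟩ := w
    have f := fun i k => congrFun (congrFun hm i) k
    have h0 := f (.inl ()) (.inr (.inr 0))
    have h1 := f (.inl ()) (.inr (.inr 1))
    have h2 := f (.inl ()) (.inr (.inr 2))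
    have t0 := f (.inr (.inl 0)) (.inr (.inr 1))
    have t1 := f (.inr (.inl 0)) (.inr (.inr 2))
    have t2 := f (.inr (.inl 1)) (.inr (.inr 2))
    simp [rMat, vecA, blockM, skewS] at h0 h1 h2 t0 t1 t2
    subst h0 h1 h2
    simp_all
  have hall := replay_sound l _ r (fun c hc => ?_) hr (enc v) (hcov v hinj)
  · rwa [dec_enc] at hall
  · clear hr hv hinj
    have key : ∀ (L : List ℕ) (a : ℕ),
        (L.foldl (fun a c => a ||| 1 <<< c) a).testBit c = true →
          a.testBit c = true ∨ c ∈ L := by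
      intro L
      induction L with
      | nil => exact fun a h => Or.inl h
      | cons d L ih =>
        intro a h
        rcases ih _ h with h' | h'
        · rw [Nat.testBit_or, Bool.or_eq_true, Nat.one_shiftLeft, Nat.testBit_two_pow] at h'
          rcases h' with h' | h'
          · exact Or.inl h'
          · exact Or.inr (List.mem_cons.2 (Or.inl (by simpa using (Eq.symm (by simpa using h')))))
        · exact Or.inr (List.mem_cons_of_mem _ h')
    exact hroots c ((key roots 0 hc).resolve_left (by simp))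

end Cfsg.Agent.H18.O7
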