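import Cfsg.Agent.H18.O7.Gen

/-!
Conjugation invariants separating the representatives, except for one pair.
-/

set_option autoImplicit false
set_option linter.unusedSimpArgs false
set_option maxRecDepth 8000

namespace Cfsg.Agent.H18.O7

open Matrix
open scoped Matrix

def gmat (g : O7) : M7 := ((g : Matrix.GeneralLinearGroup I7 K) : M7)

theorem gmat_mul (g h : O7) : gmat (g * h) = gmat g * gmat h := rfl
theorem gmat_one : gmat 1 = 1 := rfl

theorem gmat_injective : Function.Injective gmat := fun _ _ h => Subtype.ext (Units.ext h)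

theorem gmat_isometry (g : O7) (v : I7 → K) : qf (gmat g *ᵥ v) = qf v := g.2 v v

def xm (g : O7) : M7 := gmat g - 1

/-- The polar form. -/
def pol (u v : I7 → K) : K := qf (u + v) - qf u - qf v

def InvA (g : O7) : Prop := xm g * xm g = 0
def InvV (c : K) (g : O7) : Prop :=
  ∃ v, (xm g * xm g) *ᵥ v ≠ 0 ∧ pol ((xm g * xm g) *ᵥ v) v = c
def InvT (g : O7) : Prop := ∀ v, xm g *ᵥ v = 0 → qf v = 0

theorem xm_conj (h g : O7) : xm (h * g * h⁻¹) = gmat h * xm g * gmat h⁻¹ := by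
  have e : gmat h * gmat h⁻¹ = 1 := by rw [← gmat_mul, mul_inv_cancel, gmat_one]
  simp only [xm, gmat_mul, Matrix.mul_sub, Matrix.sub_mul, Matrix.mul_one, e]

theorem xm_sq_conj (h g : O7) :
    xm (h * g * h⁻¹) * xm (h * g * h⁻¹) = gmat h * (xm g * xm g) * gmat h⁻¹ := by
  have e : gmat h⁻¹ * gmat h = 1 := by rw [← gmat_mul, inv_mul_cancel, gmat_one]
  rw [xm_conj]
  simp only [Matrix.mul_assoc]
  rw [← Matrix.mul_assoc (gmat h⁻¹) (gmat h), e, Matrix.one_mul]

theorem conj_inv_imp {P : O7 → Prop} (hP : ∀ h g, P g → P (h * g * h⁻¹)) (h g : O7) :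
    P (h * g * h⁻¹) ↔ P g := by
  refine ⟨fun hg => ?_, hP h g⟩
  have := hP h⁻¹ _ hg
  simpa [mul_assoc] using this

theorem invA_conj (h g : O7) : InvA (h * g * h⁻¹) ↔ InvA g :=
  conj_inv_imp (fun h g hg => by
    unfold InvA at hg ⊢
    rw [xm_sq_conj, hg, Matrix.mul_zero, Matrix.zero_mul]) h g

theorem mulVec_gmat_inv (h : O7) (v : I7 → K) : gmat h⁻¹ *ᵥ (gmat h *ᵥ v) = v := by
  rw [Matrix.mulVec_mulVec, ← gmat_mul, inv_mul_cancel, gmat_one, Matrix.one_mulVec]

theorem mulVec_inv_gmat (h : O7) (v : I7 → K) : gmat h *ᵥ (gmat h⁻¹ *ᵥ v) = v := by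
  rw [Matrix.mulVec_mulVec, ← gmat_mul, mul_inv_cancel, gmat_one, Matrix.one_mulVec]

theorem pol_gmat (h : O7) (u v : I7 → K) : pol (gmat h *ᵥ u) (gmat h *ᵥ v) = pol u v := by
  simp only [pol, ← Matrix.mulVec_add, gmat_isometry]

theorem invV_conj (c : K) (h g : O7) : InvV c (h * g * h⁻¹) ↔ InvV c g :=
  conj_inv_imp (fun h g ⟨v, hv, hc⟩ => by
    refine ⟨gmat h *ᵥ v, ?_, ?_⟩ <;>
      rw [xm_sq_conj, ← Matrix.mulVec_mulVec, ← Matrix.mulVec_mulVec, mulVec_gmat_inv]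
    · intro h0
      apply hv
      rw [← mulVec_gmat_inv h ((xm g * xm g) *ᵥ v), h0, Matrix.mulVec_zero]
    · rw [pol_gmat, hc]) h g

theorem invT_conj (h g : O7) : InvT (h * g * h⁻¹) ↔ InvT g :=
  conj_inv_imp (fun h g hg v hv => by
    rw [← mulVec_inv_gmat h v, gmat_isometry]
    apply hg
    rw [xm_conj, ← Matrix.mulVec_mulVec, ← Matrix.mulVec_mulVec] at hv
    rw [← mulVec_gmat_inv h (xm g *ᵥ (gmat h⁻¹ *ᵥ v)), hv, Matrix.mulVec_zero]) h g

/-- The five invariants agree. -/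
def SameInv (g g' : O7) : Prop :=
  (InvA g ↔ InvA g') ∧ (∀ c, InvV c g ↔ InvV c g') ∧ (InvT g ↔ InvT g')

theorem sameInv_conj (h g : O7) : SameInv (h * g * h⁻¹) g :=
  ⟨invA_conj h g, fun c => invV_conj c h g, invT_conj h g⟩

theorem three_M7 : (3 : M7) = 0 := by
  have : (3 : M7) = algebraMap K M7 3 := (map_ofNat (algebraMap K M7) 3).symm
  rw [this, show (3 : K) = 0 from by decide, map_zero]

theorem sameInv_sq {g : O7} (h3 : g * g * g = 1) : SameInv (g * g) g := by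
  have hx : xm g * xm g * xm g = 0 := by
    have e : gmat g * gmat g * gmat g = 1 := by rw [← gmat_mul, ← gmat_mul, h3, gmat_one]
    have : xm g * xm g * xm g = gmat g * gmat g * gmat g - 1
        + (3 : M7) * (gmat g - gmat g * gmat g) := by
      unfold xm; noncomm_ring
    rw [this, e, three_M7, zero_mul, sub_self, add_zero]
  have h2 : xm (g * g) = 2 * xm g + xm g * xm g := by
    unfold xm; rw [gmat_mul]; noncomm_ring
  have hsq : xm (g * g) * xm (g * g) = xm g * xm g := by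
    have : (2 * xm g + xm g * xm g) * (2 * xm g + xm g * xm g) = xm g * xm g
        + ((3 : M7) * (xm g * xm g) + 4 * (xm g * xm g * xm g)
          + xm g * xm g * xm g * xm g) := by noncomm_ring
    rw [h2, this, hx, three_M7, zero_mul, mul_zero, zero_mul, add_zero, add_zero, add_zero]
  refine ⟨by unfold InvA; rw [hsq], fun c => by unfold InvV; rw [hsq], ?_⟩
  have hker : ∀ v, xm (g * g) *ᵥ v = 0 ↔ xm g *ᵥ v = 0 := by
    intro v
    constructor <;> intro hv
    · have h4 : (xm g * xm g) *ᵥ v = 0 := by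
        rw [← hsq, ← Matrix.mulVec_mulVec, hv, Matrix.mulVec_zero]
      rw [h2, Matrix.add_mulVec, h4, add_zero, two_mul, Matrix.add_mulVec] at hv
      have h5 : ∀ a : K, a + a = 0 → a = 0 := by decide
      funext i
      exact h5 _ (congrFun hv i)
    · rw [h2, Matrix.add_mulVec, two_mul, Matrix.add_mulVec, hv, ← Matrix.mulVec_mulVec, hv,
        Matrix.mulVec_zero, add_zero, add_zero]
  unfold InvT
  simp only [hker]

theorem SameInv.trans {a b c : O7} (h : SameInv a b) (h' : SameInv b c) : SameInv a c :=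
  ⟨h.1.trans h'.1, fun d => (h.2.1 d).trans (h'.2.1 d), h.2.2.trans h'.2.2⟩

theorem SameInv.symm {a b : O7} (h : SameInv a b) : SameInv b a :=
  ⟨h.1.symm, fun d => (h.2.1 d).symm, h.2.2.symm⟩

/-! ### Values on the representatives -/

def xlit (l : List (I7 × I7 × K)) : M7 :=
  Matrix.of fun i j => (l.filter fun t => decide (t.1 = i) && decide (t.2.1 = j)).map (·.2.2) |>.sum

abbrev pD : I7 := .inl ()
abbrev pE (i : Fin 3) : I7 := .inr (.inl i)
abbrev pF (i : Fin 3) : I7 := .inr (.inr i)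

theorem sq_rep1 : xm (rep 1) * xm (rep 1) = Matrix.single (pE 2) (pF 2) 1 := by decide +kernel
theorem sq_rep2 : xm (rep 2) * xm (rep 2) = Matrix.single (pE 0) (pF 0) 2 := by decide +kernel
theorem sq_rep3 : xm (rep 3) * xm (rep 3) = Matrix.single (pE 2) (pF 2) 1 := by decide +kernel
theorem sq_rep4 : xm (rep 4) * xm (rep 4) = Matrix.single (pE 2) (pF 2) 1 := by decide +kernel
theorem sq_rep5 : xm (rep 5) * xm (rep 5) =
    Matrix.single (pE 0) (pE 2) 1 + Matrix.single (pF 2) (pF 0) 1 := by decide +kernel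
theorem sq_rep6 : xm (rep 6) * xm (rep 6) =
    Matrix.single (pE 0) (pF 0) 1 + Matrix.single (pE 2) (pF 2) 1 := by decide +kernel

theorem invA_rep0 : InvA (rep 0) := by unfold InvA; decide +kernel

theorem not_invV_rep0 (c : K) : ¬ InvV c (rep 0) := by
  rintro ⟨v, hv, -⟩
  rw [invA_rep0, Matrix.zero_mulVec] at hv
  exact hv rfl

theorem invV_single {g : O7} {i : Fin 3} {a : K} (hg : xm g * xm g = Matrix.single (pE i) (pF i) a)
    (ha : a ≠ 0) (c : K) : InvV c g ↔ c = a := by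
  have key : ∀ v : I7 → K, pol (Matrix.single (pE i) (pF i) a *ᵥ v) v = a * v (pF i) * v (pF i) ∧
      (Matrix.single (pE i) (pF i) a *ᵥ v ≠ 0 ↔ v (pF i) ≠ 0) := by
    intro v
    rw [Matrix.single_mulVec]
    constructor
    · fin_cases i <;>
        simp [pol, qf, Cfsg.quadFormOdd, Fin.sum_univ_three, pE, pF] <;> ring
    · simp [ha]
  have ksq : ∀ x : K, x ≠ 0 → x * x = 1 := by decide
  constructor
  · rintro ⟨v, hv, hc⟩
    rw [hg] at hv hc
    rw [← hc, (key v).1, mul_assoc, ksq _ ((key v).2.1 hv), mul_one]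
  · rintro rfl
    refine ⟨Pi.single (pF i) 1, ?_, ?_⟩ <;> rw [hg]
    · exact (key _).2.2 (by simp)
    · rw [(key _).1]; simp

theorem invA_false_of_invV {c : K} {g : O7} (h : InvV c g) : ¬ InvA g := by
  obtain ⟨v, hv, -⟩ := h
  intro hA
  rw [hA, Matrix.zero_mulVec] at hv
  exact hv rfl

theorem invT_rep3 : InvT (rep 3) := by
  intro v hv
  have hx : xm (rep 3) = xlit [(pD, pF 2, 1), (pE 0, pF 1, 1), (pE 1, pF 0, 2), (pE 2, pD, 1),
      (pE 2, pF 2, 2)] := by decide +kernel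
  rw [hx] at hv
  have e := fun i => congrFun hv i
  have f2 := e pD
  have f1 := e (pE 0)
  have f0 := e (pE 1)
  have d := e (pE 2)
  simp [xlit, Matrix.mulVec, dotProduct, Fintype.sum_sum_type, Fin.sum_univ_three, pD, pE, pF,
    show (2 : K) ≠ 0 by decide] at f2 f1 f0 d
  simp [qf, Cfsg.quadFormOdd, Fin.sum_univ_three, f2, f1, f0] at d ⊢
  simp [d]

theorem invT_rep4 : InvT (rep 4) := by
  intro v hv
  have hx : xm (rep 4) = xlit [(pD, pF 2, 1), (pE 0, pF 1, 2), (pE 1, pF 0, 1), (pE 2, pD, 1),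
      (pE 2, pF 2, 2)] := by decide +kernel
  rw [hx] at hv
  have e := fun i => congrFun hv i
  have f2 := e pD
  have f1 := e (pE 0)
  have f0 := e (pE 1)
  have d := e (pE 2)
  simp [xlit, Matrix.mulVec, dotProduct, Fintype.sum_sum_type, Fin.sum_univ_three, pD, pE, pF,
    show (2 : K) ≠ 0 by decide] at f2 f1 f0 d
  simp [qf, Cfsg.quadFormOdd, Fin.sum_univ_three, f2, f1, f0] at d ⊢
  simp [d]

theorem not_invT_rep1 : ¬ InvT (rep 1) := fun h => by
  have := h (Pi.single (pE 1) 1 + Pi.single (pF 1) 1) (by decide +kernel)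
  revert this
  decide +kernel

theorem invV_rep5_zero : InvV 0 (rep 5) :=
  ⟨Pi.single (pF 0) 1, by rw [sq_rep5]; decide +kernel, by rw [sq_rep5]; decide +kernel⟩

theorem invV_rep6_one : InvV 1 (rep 6) :=
  ⟨Pi.single (pF 2) 1, by rw [sq_rep6]; decide +kernel, by rw [sq_rep6]; decide +kernel⟩

theorem invV_rep6_two : InvV 2 (rep 6) :=
  ⟨Pi.single (pF 0) 1 + Pi.single (pF 2) 1, by rw [sq_rep6]; decide +kernel,
    by rw [sq_rep6]; decide +kernel⟩

theorem not_invV_rep6_zero : ¬ InvV 0 (rep 6) := by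
  rintro ⟨v, hv, hc⟩
  rw [sq_rep6, Matrix.add_mulVec, Matrix.single_mulVec, Matrix.single_mulVec] at hv hc
  simp [pol, qf, Cfsg.quadFormOdd, Fin.sum_univ_three, pE, pF] at hc
  have key : ∀ a b : K, a * a + b * b = 0 → a = 0 ∧ b = 0 := by decide
  have h0 := key (v (pF 0)) (v (pF 2)) (by simp only [pF]; linear_combination hc)
  apply hv
  simp only [pF] at h0 ⊢
  simp [h0.1, h0.2]

/-- Mutually exclusive properties. -/
def Tag : Fin 6 → O7 → Prop
  | 0, g => InvA g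
  | 1, g => (∀ c, InvV c g ↔ c = 1) ∧ ¬ InvT g
  | 2, g => ∀ c, InvV c g ↔ c = 2
  | 3, g => (∀ c, InvV c g ↔ c = 1) ∧ InvT g
  | 4, g => InvV 0 g
  | 5, g => ¬ InvV 0 g ∧ InvV 1 g ∧ InvV 2 g

def tagOf : Fin 7 → Fin 6 := ![0, 1, 2, 3, 3, 4, 5]

theorem tag_rep : ∀ k, Tag (tagOf k) (rep k)
  | 0 => invA_rep0
  | 1 => ⟨invV_single sq_rep1 one_ne_zero, not_invT_rep1⟩
  | 2 => invV_single sq_rep2 (by decide)
  | 3 => ⟨invV_single sq_rep3 one_ne_zero, invT_rep3⟩
  | 4 => ⟨invV_single sq_rep4 one_ne_zero, invT_rep4⟩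
  | 5 => invV_rep5_zero
  | 6 => ⟨not_invV_rep6_zero, invV_rep6_one, invV_rep6_two⟩

theorem tag_congr {g g' : O7} (h : SameInv g g') (a : Fin 6) (ha : Tag a g) : Tag a g' := by
  obtain ⟨hA, hV, hT⟩ := h
  fin_cases a <;> simp only [Tag, ← hA, ← hV, ← hT] at ha ⊢ <;> exact ha

theorem invV_of_tag : ∀ {a : Fin 6} {g : O7}, a ≠ 0 → Tag a g → ∃ c, InvV c g
  | 0, _, h, _ => absurd rfl h
  | 1, _, _, h => ⟨1, (h.1 1).2 rfl⟩
  | 2, _, _, h => ⟨2, (h 2).2 rfl⟩
  | 3, _, _, h => ⟨1, (h.1 1).2 rfl⟩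
  | 4, _, _, h => ⟨0, h⟩
  | 5, _, _, h => ⟨1, h.2.1⟩

theorem tag_unique {g : O7} {a b : Fin 6} (ha : Tag a g) (hb : Tag b g) : a = b := by
  rcases eq_or_ne a 0 with rfl | ha0 <;> rcases eq_or_ne b 0 with rfl | hb0
  · rfl
  · obtain ⟨c, hc⟩ := invV_of_tag hb0 hb
    exact absurd ha (invA_false_of_invV hc)
  · obtain ⟨c, hc⟩ := invV_of_tag ha0 ha
    exact absurd hb (invA_false_of_invV hc)
  · have c01 : (0 : K) ≠ 1 := by decide
    have c02 : (0 : K) ≠ 2 := by decide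
    have c12 : (1 : K) ≠ 2 := by decide
    fin_cases a <;> fin_cases b <;> simp [Tag] at ha hb ha0 hb0 ⊢ <;>
      first
        | exact absurd ha.2 hb.2
        | exact absurd hb.2 ha.2
        | simp [ha, c01, c02, c12, c12.symm] at hb
        | simp [hb, c01, c02, c12, c12.symm] at ha

theorem tagOf_eq : ∀ i j : Fin 7, tagOf i = tagOf j → i = j ∨ (i = 3 ∧ j = 4) ∨ (i = 4 ∧ j = 3) := by
  decide

/-- The representatives are separated, except for the pair `3, 4`. -/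
theorem rep_eq_of_sameInv {i j : Fin 7} (h : SameInv (rep i) (rep j)) :
    i = j ∨ (i = 3 ∧ j = 4) ∨ (i = 4 ∧ j = 3) := by
  exact tagOf_eq _ _ (tag_unique (tag_congr h _ (tag_rep i)) (tag_rep j))

end Cfsg.Agent.H18.O7
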