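import Cfsg.Agent.H18.O7.Omega

/-!
The Levi complement meets `Ω` exactly in the matrices of determinant one.
-/

set_option autoImplicit false

namespace Cfsg.Agent.H18.O7

open Matrix

/-- The standard matrix of determinant `-1`. -/
def negOne : M3ˣ where
  val := !![-1, 0, 0; 0, 1, 0; 0, 0, 1]
  inv := !![-1, 0, 0; 0, 1, 0; 0, 0, 1]
  val_inv := by decide +kernel
  inv_val := by decide +kernel

theorem units_ext_of_val {u v : M3ˣ} (h : u.val = v.val) : u = v := Units.ext h

theorem units_det_ne_zero (u : M3ˣ) : u.val.det ≠ 0 :=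
  (Matrix.isUnit_iff_isUnit_det u.val).1 u.isUnit |>.ne_zero

noncomputable def leviClass : M3ˣ →* O7 ⧸ Om := (QuotientGroup.mk' Om).comp lO

theorem leviClass_eq_one {u : M3ˣ} (h : u * u * u = 1) : leviClass u = 1 :=
  (QuotientGroup.eq_one_iff _).2 (mem_Om_of_cube (by rw [← map_mul, ← map_mul, h, map_one]))

theorem leviClass_sq (u : M3ˣ) : leviClass (u * u) = 1 :=
  (QuotientGroup.eq_one_iff _).2 (by rw [map_mul]; exact sq_mem_Om _)

theorem k_cases : ∀ x : K, x ≠ 0 → x = 1 ∨ x = -1 := by decide

/-- The class of a Levi element depends only on its determinant. -/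
def LeviGood (M : M3) : Prop :=
  ∀ u : M3ˣ, u.val = M → leviClass u = if M.det = 1 then 1 else leviClass negOne

theorem leviGood_mul {A B : M3} (hA : A.det ≠ 0) (hB : B.det ≠ 0) (gA : LeviGood A)
    (gB : LeviGood B) : LeviGood (A * B) := by
  intro u hu
  obtain ⟨a, rfl⟩ : IsUnit A := (Matrix.isUnit_iff_isUnit_det A).2 (Ne.isUnit hA)
  obtain ⟨b, rfl⟩ : IsUnit B := (Matrix.isUnit_iff_isUnit_det B).2 (Ne.isUnit hB)
  have : u = a * b := units_ext_of_val hu
  subst this
  rw [map_mul, gA a rfl, gB b rfl, Matrix.det_mul]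
  have hn : leviClass negOne * leviClass negOne = 1 := by rw [← map_mul]; exact leviClass_sq _
  rcases k_cases _ hA with h | h <;> rcases k_cases _ hB with h' | h' <;>
    simp [h, h', hn, show (-1 : K) ≠ 1 by decide]

def diagRoot : Fin 3 → M3
  | 0 => !![1, 0, 0; 0, 0, -1; 0, 1, 0]
  | 1 => !![0, 0, -1; 0, 1, 0; 1, 0, 0]
  | 2 => !![0, -1, 0; 1, 0, 0; 0, 0, 1]

theorem diag_decomp : ∀ a b c : K, a * b * c = 1 →
    Matrix.diagonal ![a, b, c] = 1 ∨ ∃ i, diagRoot i * diagRoot i = Matrix.diagonal ![a, b, c] := by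
  decide +kernel

theorem three_zero : ∀ c : K, c + c + c = 0 := by decide

theorem diag_flip : ∀ a b c : K, a * b * c = -1 →
    Matrix.diagonal ![a, b, c] = negOne.val * Matrix.diagonal ![-a, b, c] ∧ -a * b * c = 1 := by
  decide +kernel

theorem diagRoot_det : ∀ i, (diagRoot i).det ≠ 0 := by decide +kernel

theorem leviClass_diag {a b c : K} (h : a * b * c = 1) (u : M3ˣ)
    (hu : u.val = Matrix.diagonal ![a, b, c]) : leviClass u = 1 := by
  rcases diag_decomp a b c h with h1 | ⟨i, hi⟩
  · rw [units_ext_of_val (v := 1) (hu.trans h1), map_one]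
  · obtain ⟨r, hr⟩ : IsUnit (diagRoot i) :=
      (Matrix.isUnit_iff_isUnit_det _).2 (Ne.isUnit (diagRoot_det i))
    have e : u = r * r := units_ext_of_val (by rw [hu, ← hi, Units.val_mul, hr])
    rw [e, leviClass_sq]

theorem leviGood_all (u : M3ˣ) : LeviGood u.val := by
  refine Matrix.diagonal_transvection_induction_of_det_ne_zero LeviGood u.val
    (units_det_ne_zero u) ?_ ?_ (fun A B hA hB => leviGood_mul hA hB)
  · intro D hD v hv
    have hD' : D = ![D 0, D 1, D 2] := by funext i; fin_cases i <;> rfl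
    have hdet : (Matrix.diagonal D).det = D 0 * D 1 * D 2 := by
      rw [Matrix.det_diagonal, Fin.prod_univ_three]
    rw [hdet] at hD
    rw [hdet]
    rcases k_cases _ hD with h | h
    · rw [if_pos h]
      exact leviClass_diag h v (by rw [hv]; exact congrArg _ hD')
    · rw [if_neg (by rw [h]; decide)]
      obtain ⟨h1, h2⟩ := diag_flip _ _ _ h
      have hv' : (negOne⁻¹ * v).val = Matrix.diagonal ![-(D 0), D 1, D 2] := by
        rw [Units.val_mul, hv]
        conv_lhs => rw [hD', h1]
        rw [← Matrix.mul_assoc, Units.inv_mul, Matrix.one_mul]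
      have := leviClass_diag h2 _ hv'
      rw [map_mul, map_inv, inv_mul_eq_one] at this
      exact this.symm
  · intro t v hv
    have hdet : t.toMatrix.det = 1 := t.det
    rw [if_pos hdet]
    apply leviClass_eq_one
    refine units_ext_of_val ?_
    obtain ⟨i, j, hij, c⟩ := t
    simp only [Units.val_mul, hv, Matrix.TransvectionStruct.toMatrix, Units.val_one]
    rw [Matrix.transvection_mul_transvection_same i j hij,
      Matrix.transvection_mul_transvection_same i j hij,
      three_zero c, Matrix.transvection_zero]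

theorem lO_mem_Om {u : M3ˣ} (h : u.val.det = 1) : lO u ∈ Om := by
  have := leviGood_all u u rfl
  rw [if_pos h] at this
  exact (QuotientGroup.eq_one_iff _).1 this

theorem mul_negOne_mem_Om {u : M3ˣ} (h : u.val.det ≠ 1) : lO u * lO negOne ∈ Om := by
  rw [← map_mul]
  apply lO_mem_Om
  rw [Units.val_mul, Matrix.det_mul, (k_cases _ (units_det_ne_zero u)).resolve_left h]
  decide +kernel

end Cfsg.Agent.H18.O7
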