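import Cfsg.Agent.H18.O7.Invariants

/-!
The pair of representatives with Jordan blocks `[3, 2, 2]` is not fused by `Ω`.
-/

set_option autoImplicit false
set_option linter.unusedSimpArgs false
set_option maxRecDepth 8000

namespace Cfsg.Agent.H18.O7

open Matrix QuadraticMap
open scoped Matrix

abbrev Q7 : QuadraticForm K (I7 → K) := H5.qOdd 3 K

def negD : M7 := Matrix.of fun i j => if i = j then (if i = pD then -1 else 1) else 0

def negDGL : Matrix.GeneralLinearGroup I7 K where
  val := negD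
  inv := negD
  val_inv := by decide +kernel
  inv_val := by decide +kernel

theorem negD_isometry (x : I7 → K) : qf (negD *ᵥ x) = qf x := by
  simp [qf, Cfsg.quadFormOdd, negD, Matrix.mulVec, dotProduct, Fintype.sum_sum_type,
    Fin.sum_univ_three, pD]

def dO : O7 := ⟨negDGL, fun u _ => negD_isometry u⟩

theorem refl_eq (v x : I7 → K) :
    ((H5.refl Q7 v : H5.orth Q7) : (I7 → K) ≃ₗ[K] (I7 → K)) x =
      x - ((qf v)⁻¹ * (qf (v + x) - qf v - qf x)) • v := by
  rw [H5.refl_apply, QuadraticMap.polar, H5.coe_qOdd]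

theorem qOdd_apply (v : I7 → K) : Q7 v = qf v := congrFun (H5.coe_qOdd 3) v

theorem dick_mul' (a b : H5.orth Q7) : H5.dick (a * b) = H5.dick a * H5.dick b :=
  H5.dick_mul nondeg (by rw [H5.reflGroup_eq_top nondeg card_ok]; trivial) b

theorem qf_d : qf (Pi.single pD 1) = 1 := by decide +kernel
theorem qf_ef_add : qf (Pi.single (pE 0) 1 + Pi.single (pF 0) 1) = 1 := by decide +kernel
theorem qf_ef_sub : qf (Pi.single (pE 0) 1 - Pi.single (pF 0) 1) = 2 := by decide +kernel

theorem pol_d (x : I7 → K) :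
    qf (Pi.single pD 1 + x) - qf (Pi.single pD 1) - qf x = 2 * x pD := by
  simp [qf, Cfsg.quadFormOdd, Fin.sum_univ_three, pD]
  ring

theorem pol_ef_add (x : I7 → K) :
    qf (Pi.single (pE 0) 1 + Pi.single (pF 0) 1 + x) - qf (Pi.single (pE 0) 1 + Pi.single (pF 0) 1)
      - qf x = x (pE 0) + x (pF 0) := by
  simp [qf, Cfsg.quadFormOdd, Fin.sum_univ_three, pE, pF]
  ring

theorem pol_ef_sub (x : I7 → K) :
    qf (Pi.single (pE 0) 1 - Pi.single (pF 0) 1 + x) - qf (Pi.single (pE 0) 1 - Pi.single (pF 0) 1)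
      - qf x = x (pF 0) - x (pE 0) := by
  simp [qf, Cfsg.quadFormOdd, Fin.sum_univ_three, pE, pF]
  ring

theorem toOrth_dO : toOrth dO = H5.refl Q7 (Pi.single pD 1) := by
  apply H5.orth_ext
  intro x
  rw [toOrth, H5.isoEquiv_apply, refl_eq, pol_d, qf_d, inv_one, one_mul]
  funext i
  rcases i with ⟨⟩ | i | i <;>
    simp [dO, negDGL, negD, Matrix.mulVec, dotProduct, pD, Fintype.sum_sum_type]
  ring

theorem two_inv : (2 : K)⁻¹ = 2 := inv_eq_of_mul_eq_one_right (by decide)

theorem three_K : (3 : K) = 0 := by decide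

theorem toOrth_negOne : toOrth (lO negOne) =
    H5.refl Q7 (Pi.single (pE 0) 1 + Pi.single (pF 0) 1) *
      H5.refl Q7 (Pi.single (pE 0) 1 - Pi.single (pF 0) 1) := by
  apply H5.orth_ext
  intro x
  rw [toOrth, H5.isoEquiv_apply, show (((lO negOne : O7) : Matrix.GeneralLinearGroup I7 K) : M7) =
      lMat negOne.val negOne.val from rfl,
    H5.orth_mul_apply, refl_eq, refl_eq, pol_ef_add, pol_ef_sub,
    qf_ef_add, qf_ef_sub, inv_one, one_mul, two_inv]
  funext i
  rcases i with ⟨⟩ | i | i <;> (try fin_cases i) <;>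
    simp [lMat, negOne, Matrix.mulVec, dotProduct, pE, pF,
      Fintype.sum_sum_type, Fin.sum_univ_three, Pi.single_apply]
  · linear_combination (x (Sum.inr (Sum.inr 0)) - x (Sum.inr (Sum.inl 0))) * three_K
  · linear_combination (x (Sum.inr (Sum.inl 0)) - x (Sum.inr (Sum.inr 0))) * three_K

theorem dick_dO : H5.dick (toOrth dO) = -1 := by
  rw [toOrth_dO, H5.dick_refl nondeg (by rw [qOdd_apply, qf_d]; decide)]

theorem dick_negOne : H5.dick (toOrth (lO negOne)) = 1 := by
  rw [toOrth_negOne, dick_mul', H5.dick_refl nondeg (by rw [qOdd_apply, qf_ef_add]; decide),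
    H5.dick_refl nondeg (by rw [qOdd_apply, qf_ef_sub]; decide)]
  simp

theorem spin_negOne : H5.spin Q7 (toOrth (lO negOne)) = -1 := by
  rw [toOrth_negOne, map_mul, H5.spin_refl (by rw [qOdd_apply, qf_ef_add]; decide),
    H5.spin_refl (by rw [qOdd_apply, qf_ef_sub]; decide), qOdd_apply, qOdd_apply, qf_ef_add,
    qf_ef_sub, H5.sqc_one, one_mul, H5.sqc_eq_neg_one_iff]
  rintro ⟨r, hr⟩
  revert r
  decide

theorem negOne_not_mem : lO negOne ∉ Om := fun h => by
  have := ((mem_Om_iff _).1 h).2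
  change H5.spin Q7 (toOrth (lO negOne)) = 1 at this
  rw [spin_negOne] at this
  exact absurd this (by decide)

/-- A block upper unitriangular matrix has cube one. -/
theorem cube_of_triangular (r : O7) (h1 : ∀ i j, gmat r (pE i) (pE j) = if i = j then 1 else 0)
    (h2 : ∀ i j, gmat r (pF i) (pF j) = if i = j then 1 else 0) (h3 : gmat r pD pD = 1)
    (h4 : ∀ j, gmat r pD (pE j) = 0) (h5 : ∀ i j, gmat r (pF i) (pE j) = 0)
    (h6 : ∀ i, gmat r (pF i) pD = 0) : r ∈ Om := by
  apply mem_Om_of_cube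
  apply gmat_injective
  have hx : ∀ i j, (gmat r - 1) i j =
      (match i, j with
        | .inr (.inl a), .inl _ => gmat r (pE a) pD
        | .inr (.inl a), .inr (.inr b) => gmat r (pE a) (pF b)
        | .inl _, .inr (.inr b) => gmat r pD (pF b)
        | _, _ => 0) := by
    intro i j
    rcases i with ⟨⟩ | i | i <;> rcases j with ⟨⟩ | j | j <;>
      simp [Matrix.sub_apply, Matrix.one_apply, h1, h2, h4, h5, h6, pE, pF, pD] <;>
      simp_all [pE, pF, pD]
  have h0 : (gmat r - 1) * (gmat r - 1) * (gmat r - 1) = 0 := by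
    ext i j
    rcases i with ⟨⟩ | i | i <;> rcases j with ⟨⟩ | j | j <;>
      simp [Matrix.mul_apply, Fintype.sum_sum_type, hx]
  have : gmat r * gmat r * gmat r = (gmat r - 1) * (gmat r - 1) * (gmat r - 1) + 1
      + (3 : M7) * (gmat r * gmat r - gmat r) := by noncomm_ring
  rw [h0, three_M7, zero_mul, zero_add, add_zero] at this
  rw [gmat_mul, gmat_mul, this, gmat_one]

/-- Stabilizer of the totally singular subspace: the determinant on it is one. -/
theorem det_of_block (h : O7) (hh : h ∈ Om) (A F : M3)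
    (hA : ∀ i j, gmat h (pE i) (pE j) = A i j) (hF : ∀ i j, gmat h (pF i) (pF j) = F i j)
    (h4 : ∀ j, gmat h pD (pE j) = 0) (h5 : ∀ i j, gmat h (pF i) (pE j) = 0)
    (h6 : ∀ i, gmat h (pF i) pD = 0) (hAF : Fᵀ * A = 1) : A.det = 1 ∧ gmat h pD pD = 1 := by
  set u := mkU A Fᵀ (mul_eq_one_comm.1 hAF) hAF
  have hdu : H5.dick (toOrth (lO u)) = 1 := by
    by_cases hdet : A.det = 1
    · exact ((mem_Om_iff _).1 (lO_mem_Om (u := u) hdet)).1
    · have d1 : H5.dick (toOrth (lO u)) * H5.dick (toOrth (lO negOne)) = 1 := by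
        rw [← dick_mul', ← map_mul]
        exact ((mem_Om_iff _).1 (mul_negOne_mem_Om (u := u) hdet)).1
      rwa [dick_negOne, mul_one] at d1
  have hd2 : gmat h pD pD * gmat h pD pD = 1 := by
    have e := gmat_isometry h (Pi.single pD 1)
    rw [qf_d, Matrix.mulVec_single_one] at e
    simp [qf, Cfsg.quadFormOdd, Fin.sum_univ_three] at e
    have e0 : ∀ i, gmat h (Sum.inr (Sum.inr i)) pD = 0 := h6
    simpa [pD, e0, pow_two] using e
  have hr : ∀ i j, gmat ((lO u)⁻¹ * h) i j = (lMat Fᵀ A * gmat h) i j := fun i j => rfl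
  have e1 : ∀ i j, (Fᵀ * A) i j = if i = j then 1 else 0 := fun i j => by
    rw [hAF, Matrix.one_apply]
  have e2 : ∀ i j, (Aᵀ * F) i j = if i = j then 1 else 0 := fun i j => by
    have : Aᵀ * F = 1 := by
      rw [← Matrix.transpose_transpose F, ← Matrix.transpose_mul, hAF, Matrix.transpose_one]
    rw [this, Matrix.one_apply]
  simp only [Matrix.mul_apply, Matrix.transpose_apply] at e1 e2
  have k1 : ∀ i j, gmat ((lO u)⁻¹ * h) (pE i) (pE j) = if i = j then 1 else 0 := fun i j => by
    rw [hr, ← e1]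
    simp [lMat, Matrix.mul_apply, Fintype.sum_sum_type, ← hA, h5, pE, pF]
  have k2 : ∀ i j, gmat ((lO u)⁻¹ * h) (pF i) (pF j) = if i = j then 1 else 0 := fun i j => by
    rw [hr, ← e2]
    simp [lMat, Matrix.mul_apply, Fintype.sum_sum_type, ← hF, pE, pF]
  have k3 : gmat ((lO u)⁻¹ * h) pD pD = gmat h pD pD := by
    rw [hr]; simp [lMat, Matrix.mul_apply, Fintype.sum_sum_type, pD]
  have k4 : ∀ j, gmat ((lO u)⁻¹ * h) pD (pE j) = 0 := fun j => by
    rw [hr]; simp [lMat, Matrix.mul_apply, Fintype.sum_sum_type, pD]; exact h4 j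
  have k5 : ∀ i j, gmat ((lO u)⁻¹ * h) (pF i) (pE j) = 0 := fun i j => by
    rw [hr]
    have h5' : ∀ k, gmat h (Sum.inr (Sum.inr k)) (pE j) = 0 := fun k => h5 k j
    simp [lMat, Matrix.mul_apply, Fintype.sum_sum_type, pF, h5']
  have k6 : ∀ i, gmat ((lO u)⁻¹ * h) (pF i) pD = 0 := fun i => by
    rw [hr]
    have h6' : ∀ k, gmat h (Sum.inr (Sum.inr k)) pD = 0 := h6
    simp [lMat, Matrix.mul_apply, Fintype.sum_sum_type, pF, h6']
  have hcases : ∀ a : K, a * a = 1 → a = 1 ∨ a = -1 := by decide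
  rcases hcases _ hd2 with he | he
  · have hm := cube_of_triangular _ k1 k2 (k3.trans he) k4 k5 k6
    refine ⟨?_, he⟩
    by_contra hne
    have hu := mul_negOne_mem_Om (u := u) hne
    apply negOne_not_mem
    have hu' : lO u ∈ Om := by
      have : lO u = h * ((lO u)⁻¹ * h)⁻¹ := by group
      rw [this]
      exact mul_mem hh (inv_mem hm)
    have : lO negOne = (lO u)⁻¹ * (lO u * lO negOne) := by group
    rw [this]
    exact mul_mem (inv_mem hu') hu
  · have hm : dO * ((lO u)⁻¹ * h) ∈ Om := by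
      have hd : ∀ i j, gmat (dO * ((lO u)⁻¹ * h)) i j =
          (if i = pD then -1 else 1) * gmat ((lO u)⁻¹ * h) i j := by
        intro i j
        rw [gmat_mul, Matrix.mul_apply, Finset.sum_eq_single i]
        · simp [dO, negDGL, negD, gmat]
        · intro b _ hb; simp [dO, negDGL, negD, gmat, Ne.symm hb]
        · simp
      refine cube_of_triangular _ ?_ ?_ ?_ ?_ ?_ ?_
      · intro i j; rw [hd, k1]; simp [pE, pD]
      · intro i j; rw [hd, k2]; simp [pF, pD]
      · rw [hd, k3, he]; simp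
      · intro j; rw [hd, k4, mul_zero]
      · intro i j; rw [hd, k5, mul_zero]
      · intro i; rw [hd, k6, mul_zero]
    have d2 : H5.dick (toOrth dO) * (H5.dick (toOrth (lO u)⁻¹) * H5.dick (toOrth h)) = 1 := by
      rw [← dick_mul', ← dick_mul', ← map_mul, ← map_mul]
      exact ((mem_Om_iff _).1 hm).1
    have d3 : H5.dick (toOrth (lO u)⁻¹) = 1 := by
      have e : H5.dick (toOrth (lO u)⁻¹) * H5.dick (toOrth (lO u)) = 1 := by
        rw [← dick_mul', ← map_mul, inv_mul_cancel, map_one, H5.dick_one]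
      rwa [hdu, mul_one] at e
    rw [dick_dO, d3, ((mem_Om_iff _).1 hh).1] at d2
    exact absurd d2 (by decide)

def target (σ τ : K) : V6 := (0, 0, σ, τ, 0, 0)

theorem rep3_eq : rep 3 = rO (target 1 1) := by
  simp [rep, gel, jordan, target]

theorem rep4_eq : rep 4 = rO (target 1 2) := by
  simp [rep, gel, jordan, target]

theorem rep3_not_conj (h : O7) (hh : h ∈ Om) (σ τ : K) (hστ : σ * τ = -1)
    (e : h * rep 3 * h⁻¹ = rO (target σ τ)) : False := by
  have hσ : σ ≠ 0 := fun h0 => by rw [h0, zero_mul] at hστ; exact absurd hστ (by decide)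
  have hτ : τ ≠ 0 := fun h0 => by rw [h0, mul_zero] at hστ; exact absurd hστ (by decide)
  have E : gmat h * rMat (target 1 1) = rMat (target σ τ) * gmat h := by
    rw [rep3_eq, mul_inv_eq_iff_eq_mul] at e
    exact congrArg gmat e
  set H := gmat h with hH
  have f := fun i j => congrFun (congrFun E i) j
  have q := fun i j => f i j
  simp only [Matrix.mul_apply, Fintype.sum_sum_type, Fin.sum_univ_three] at q
  -- the subspace is stabilised
  have h5 : ∀ i j, H (pF i) (pE j) = 0 := by
    intro i j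
    have a := q (pE 0) (pE j)
    have b := q (pE 1) (pE j)
    have c := q pD (pE j)
    fin_cases i <;> fin_cases j <;>
      simp [rMat, target, vecA, blockM, skewS, pE, pF, pD, hσ, hτ] at a b c ⊢ <;>
      first | exact a | exact b | exact c
  have h5' : ∀ i j, H (Sum.inr (Sum.inr i)) (Sum.inr (Sum.inl j)) = 0 := h5
  have h4 : ∀ j, H pD (pE j) = 0 := by
    intro j
    have a := q (pE 2) (pE j)
    have t2 : (2 : K) ≠ 0 := by decide
    fin_cases j <;> simp [rMat, target, vecA, blockM, skewS, pE, pF, pD, hσ, hτ, h5', t2] at a ⊢ <;>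
      exact a
  have h4' : ∀ j, H (Sum.inl ()) (Sum.inr (Sum.inl j)) = 0 := h4
  -- isometry relations
  let A : M3 := Matrix.of fun i j => H (pE i) (pE j)
  let F : M3 := Matrix.of fun i j => H (pF i) (pF j)
  have polE : ∀ (j : Fin 3) (c : I7), pol (fun k => H k (pE j)) (fun k => H k c) =
      pol (Pi.single (pE j) 1) (Pi.single c 1) := by
    intro j c
    rw [← pol_gmat h (Pi.single (pE j) 1), Matrix.mulVec_single_one, Matrix.mulVec_single_one]
    rfl
  have hAF0 : ∀ i j, A 0 i * F 0 j + A 1 i * F 1 j + A 2 i * F 2 j = if i = j then 1 else 0 := by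
    intro i j
    have := polE i (pF j)
    simp [pol, qf, Cfsg.quadFormOdd, Fin.sum_univ_three, Pi.single_apply, pE, pF, h4', h5'] at this
    simp only [A, F, pE, pF]
    fin_cases i <;> fin_cases j <;> simp at this ⊢ <;> linear_combination this
  have hAF : Fᵀ * A = 1 := by
    have : Aᵀ * F = 1 := by
      ext i j
      rw [Matrix.mul_apply, Fin.sum_univ_three, Matrix.one_apply]
      exact hAF0 i j
    rw [← Matrix.transpose_transpose A, ← Matrix.transpose_mul, this, Matrix.transpose_one]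
  have h6 : ∀ i, H (pF i) pD = 0 := by
    intro i
    have z : Aᵀ *ᵥ (fun k => H (pF k) pD) = 0 := by
      funext j
      have := polE j pD
      simp [pol, qf, Cfsg.quadFormOdd, Fin.sum_univ_three, Pi.single_apply, pE, pD, h4', h5']
        at this
      simp [Matrix.mulVec, dotProduct, Fin.sum_univ_three, Matrix.transpose_apply, A, pE, pF, pD]
      linear_combination this
    have hA' : Aᵀ * F = 1 := by
      rw [← Matrix.transpose_transpose F, ← Matrix.transpose_mul, hAF, Matrix.transpose_one]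
    have : F *ᵥ (Aᵀ *ᵥ fun k => H (pF k) pD) = 0 := by rw [z, Matrix.mulVec_zero]
    rw [Matrix.mulVec_mulVec, mul_eq_one_comm.1 hA', Matrix.one_mulVec] at this
    exact congrFun this i
  obtain ⟨hdet, hdd⟩ := det_of_block h hh A F (fun _ _ => rfl) (fun _ _ => rfl) h4 h5 h6 hAF
  have hdd' : H (Sum.inl ()) (Sum.inl ()) = 1 := hdd
  -- the equations
  have h6' : ∀ i, H (Sum.inr (Sum.inr i)) (Sum.inl ()) = 0 := h6
  have p02 := q (pE 0) pD
  have p12 := q (pE 1) pD
  have p22 := q (pE 2) pD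
  have p01 := q (pE 0) (pF 0)
  have p11 := q (pE 1) (pF 0)
  have p00 := q (pE 0) (pF 1)
  have p10 := q (pE 1) (pF 1)
  have z0 := q pD (pF 0)
  have z1 := q pD (pF 1)
  have z2 := q pD (pF 2)
  simp [rMat, target, vecA, blockM, skewS, pE, pF, pD, h4', h5', h6'] at p02 p12 p22 p01 p11 p00 p10 z0 z1 z2
  have t2 : (2 : K) ≠ 0 := by decide
  replace p02 := p02.resolve_right t2
  replace p12 := p12.resolve_right t2
  replace z0 := z0.resolve_left hσ
  have key := hAF0 0 0
  rw [Matrix.det_fin_three] at hdet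
  simp [A, F, pE, pF] at hdet key
  rw [p02, p12] at hdet
  rw [z0] at key
  simp only [mul_zero, add_zero, zero_mul, sub_zero] at hdet key
  have a22 : H (Sum.inr (Sum.inl 2)) (Sum.inr (Sum.inl 2)) = σ := by
    rw [show (PUnit.unit : Unit) = () from rfl, hdd'] at p22
    have : 2 * (H (Sum.inr (Sum.inl 2)) (Sum.inr (Sum.inl 2)) - σ) = 0 := by linear_combination -p22
    exact sub_eq_zero.1 ((mul_eq_zero.1 this).resolve_left t2)
  have a01 : H (Sum.inr (Sum.inl 0)) (Sum.inr (Sum.inl 1)) =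
      -(τ * H (Sum.inr (Sum.inr 1)) (Sum.inr (Sum.inr 0))) := by linear_combination -p01
  have a11 : H (Sum.inr (Sum.inl 1)) (Sum.inr (Sum.inl 1)) =
      τ * H (Sum.inr (Sum.inr 0)) (Sum.inr (Sum.inr 0)) := by linear_combination -p11
  have a00 : H (Sum.inr (Sum.inl 0)) (Sum.inr (Sum.inl 0)) =
      τ * H (Sum.inr (Sum.inr 1)) (Sum.inr (Sum.inr 1)) := by linear_combination p00
  have a10 : H (Sum.inr (Sum.inl 1)) (Sum.inr (Sum.inl 0)) =
      -(τ * H (Sum.inr (Sum.inr 0)) (Sum.inr (Sum.inr 1))) := by linear_combination p10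
  rw [a22, a01, a11, a00, a10] at hdet
  rw [a00, a10] at key
  have : σ * τ = 1 := by linear_combination hdet - (σ * τ) * key
  rw [hστ] at this
  exact absurd this (by decide)

end Cfsg.Agent.H18.O7
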