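import Cfsg.Agent.H18.O7.Upper
import Cfsg.Agent.H18.O7.Split

/-!
The seven classes of subgroups of order three.
-/

set_option autoImplicit false
set_option maxRecDepth 8000

namespace Cfsg.Agent.H18.O7

open Matrix

theorem gel_zero (v : V6) : gel 0 v = rO v := by simp [gel, jordan]

theorem rep_cube : ∀ k, rep k * rep k * rep k = 1 := by
  intro k
  have key : ∀ j v, cubeV j v = (0, 0, 0, 0, 0, 0) → gel j v * gel j v * gel j v = 1 := by
    intro j v h; rw [cube_gel, h, rO_zero]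
  fin_cases k <;> exact key _ _ (by decide +kernel)

theorem rep_mem_Om (k : Fin 7) : rep k ∈ Om := mem_Om_of_cube (rep_cube k)

theorem rep_ne_one (k : Fin 7) : rep k ≠ 1 := by
  intro h
  have := congrArg gmat h
  revert this
  fin_cases k <;> decide +kernel

theorem orderOf_rep (k : Fin 7) : orderOf (rep k) = 3 := by
  apply orderOf_eq_prime
  · rw [pow_succ, pow_two]; exact rep_cube k
  · exact rep_ne_one k

noncomputable def repP (k : Fin 7) : Cfsg.POmega K (Cfsg.quadFormOdd 3 K) :=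
  toP ⟨rep k, rep_mem_Om k⟩

theorem no_fusion {i j : Fin 7} {h : O7} (hh : h ∈ Om)
    (e : h * rep i * h⁻¹ = rep j ∨ h * rep i * h⁻¹ = rep j * rep j) : i = j := by
  have hs : SameInv (rep i) (rep j) := by
    rcases e with e | e
    · exact e ▸ (sameInv_conj h (rep i)).symm
    · exact ((sameInv_conj h (rep i)).symm.trans (e ▸ sameInv_sq (rep_cube j)))
  have sq4 : rep 4 * rep 4 = rO (target 2 1) := by
    rw [rep4_eq, rO_mul]; congr 1
  have no34 : ∀ c ∈ Om, ¬ (c * rep 3 * c⁻¹ = rep 4) ∧ ¬ (c * rep 3 * c⁻¹ = rep 4 * rep 4) :=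
    fun c hc => ⟨fun e => rep3_not_conj c hc 1 2 (by decide) (e.trans rep4_eq),
      fun e => rep3_not_conj c hc 2 1 (by decide) (e.trans sq4)⟩
  rcases rep_eq_of_sameInv hs with rfl | ⟨rfl, rfl⟩ | ⟨rfl, rfl⟩
  · rfl
  · rcases e with e | e
    · exact absurd e (no34 h hh).1
    · exact absurd e (no34 h hh).2
  · exfalso
    rcases e with e | e
    · apply (no34 h⁻¹ (inv_mem hh)).1
      rw [← e]; group
    · apply (no34 h⁻¹ (inv_mem hh)).2
      calc h⁻¹ * rep 3 * h⁻¹⁻¹
          = h⁻¹ * (rep 3 * rep 3 * rep 3) * rep 3 * h⁻¹⁻¹ := by rw [rep_cube, mul_one]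
        _ = h⁻¹ * (rep 3 * rep 3) * h * (h⁻¹ * (rep 3 * rep 3) * h) := by group
        _ = rep 4 * rep 4 := by rw [← e]; group

theorem conj_mem_gen {G : Type*} [Group G] {x y g : G} (hy : orderOf y = 3) (hx : orderOf x = 3)
    (h : (Subgroup.zpowers x).map (MulAut.conj g).toMonoidHom = Subgroup.zpowers y) :
    g * x * g⁻¹ = y ∨ g * x * g⁻¹ = y * y := by
  classical
  have hm : g * x * g⁻¹ ∈ Subgroup.zpowers y := by
    rw [← h]; exact ⟨x, Subgroup.mem_zpowers x, rfl⟩
  have hfin : IsOfFinOrder y := orderOf_pos_iff.1 (by omega)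
  obtain ⟨n, hn⟩ := hfin.mem_powers_iff_mem_zpowers.2 hm
  simp only at hn
  rw [← pow_mod_orderOf, hy] at hn
  have : n % 3 = 0 ∨ n % 3 = 1 ∨ n % 3 = 2 := by omega
  rcases this with h0 | h0 | h0 <;> rw [h0] at hn
  · exfalso
    rw [pow_zero, eq_comm, mul_inv_eq_one, mul_eq_left] at hn
    rw [hn, orderOf_one] at hx
    omega
  · exact Or.inl (by rw [← hn, pow_one])
  · exact Or.inr (by rw [← hn, pow_two])

theorem classes_order_three :
    ∃ Y : Fin 7 → Subgroup (Cfsg.POmega K (Cfsg.quadFormOdd 3 K)), (∀ i, Nat.card (Y i) = 3) ∧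
      (∀ i j, (∃ g : Cfsg.POmega K (Cfsg.quadFormOdd 3 K),
        (Y i).map (MulAut.conj g).toMonoidHom = Y j) → i = j) ∧
      (∀ X : Subgroup (Cfsg.POmega K (Cfsg.quadFormOdd 3 K)), Nat.card X = 3 →
        ∃ i, ∃ g : Cfsg.POmega K (Cfsg.quadFormOdd 3 K),
          X.map (MulAut.conj g).toMonoidHom = Y i) := by
  classical
  have ho : ∀ k, orderOf (repP k) = 3 := fun k => by
    rw [repP, MulEquiv.orderOf_eq, ← Subgroup.orderOf_coe]; exact orderOf_rep k
  refine ⟨fun k => Subgroup.zpowers (repP k), fun k => by rw [Nat.card_zpowers, ho], ?_, ?_⟩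
  · rintro i j ⟨g, hg⟩
    obtain ⟨⟨h, hh⟩, rfl⟩ := toP.surjective g
    refine no_fusion hh ?_
    rcases conj_mem_gen (ho j) (ho i) hg with e | e
    · left
      rw [repP, repP, ← map_inv, ← map_mul, ← map_mul] at e
      exact congrArg Subtype.val (toP.injective e)
    · right
      rw [repP, repP, ← map_inv, ← map_mul, ← map_mul, ← map_mul] at e
      exact congrArg Subtype.val (toP.injective e)
  · intro X hX
    obtain ⟨x, hx⟩ := isCyclic_iff_exists_zpowers_eq_top.1
      (isCyclic_of_prime_card (p := 3) (hp := ⟨Nat.prime_three⟩) hX)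
    have hX' : X = Subgroup.zpowers (x : Cfsg.POmega K (Cfsg.quadFormOdd 3 K)) := by
      have := congrArg (Subgroup.map X.subtype) hx
      rwa [MonoidHom.map_zpowers, ← MonoidHom.range_eq_map, Subgroup.range_subtype, eq_comm] at this
    have ox : orderOf (x : Cfsg.POmega K (Cfsg.quadFormOdd 3 K)) = 3 := by
      rw [← Nat.card_zpowers, ← hX', hX]
    obtain ⟨⟨a, ha⟩, hax⟩ := toP.surjective (x : Cfsg.POmega K (Cfsg.quadFormOdd 3 K))
    have oa : orderOf a = 3 := by
      rw [← Subgroup.orderOf_mk (H := Om) a ha, ← MulEquiv.orderOf_eq toP, hax, ox]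
    have a3 : a * a * a = 1 := by
      have := pow_orderOf_eq_one a
      rwa [oa, pow_succ, pow_two] at this
    rcases good_of_cube a ha a3 with h1 | ⟨k, c, hc, hk⟩
    · rw [h1, orderOf_one] at oa; omega
    · refine ⟨k, toP ⟨c, hc⟩, ?_⟩
      rw [hX', MonoidHom.map_zpowers]
      congr 1
      simp only [MulEquiv.coe_toMonoidHom, MulAut.conj_apply]
      rw [← hax, ← map_inv, ← map_mul, ← map_mul, repP]
      congr 1
      exact Subtype.ext hk

end Cfsg.Agent.H18.O7
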