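import Cfsg.Agent.H18.O7.Cosets

/-!
Every element of order three of `Ω` is conjugate to one of the seven representatives.
-/

set_option autoImplicit false
set_option linter.unusedSimpArgs false
set_option linter.unnecessarySeqFocus false
set_option maxRecDepth 20000

namespace Cfsg.Agent.H18.O7

open Matrix

def uni (x y z : K) : M3 := !![1, x, y; 0, 1, z; 0, 0, 1]

def uniU (p : K × K × K) : M3ˣ :=
  mkU (uni p.1 p.2.1 p.2.2) (uni (-p.1) (p.1 * p.2.2 - p.2.1) (-p.2.2))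
    (by revert p; decide +kernel) (by revert p; decide +kernel)

/-- Conjugators of the unitriangular matrices to Jordan forms. -/
def uniConj : List (Fin 3 × M3 × M3) :=
  [(0, !![0, 0, 1; 0, 1, 0; 2, 0, 0], !![0, 0, 2; 0, 1, 0; 1, 0, 0]),
    (1, !![0, 1, 0; 0, 0, 1; 1, 0, 0], !![0, 0, 1; 1, 0, 0; 0, 1, 0]),
    (1, !![0, 1, 0; 0, 0, 2; 2, 0, 0], !![0, 0, 2; 1, 0, 0; 0, 2, 0]),
    (1, !![1, 0, 0; 0, 0, 1; 0, 2, 0], !![1, 0, 0; 0, 0, 2; 0, 1, 0]),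
    (1, !![0, 1, 0; 0, 0, 1; 1, 2, 0], !![1, 0, 1; 1, 0, 0; 0, 1, 0]),
    (1, !![0, 1, 0; 0, 0, 2; 2, 2, 0], !![2, 0, 2; 1, 0, 0; 0, 2, 0]),
    (1, !![1, 0, 0; 0, 0, 2; 0, 1, 0], !![1, 0, 0; 0, 0, 1; 0, 2, 0]),
    (1, !![0, 1, 0; 0, 0, 1; 1, 1, 0], !![2, 0, 1; 1, 0, 0; 0, 1, 0]),
    (1, !![0, 1, 0; 0, 0, 2; 2, 1, 0], !![1, 0, 2; 1, 0, 0; 0, 2, 0]),
    (1, !![1, 0, 0; 0, 1, 0; 0, 0, 1], !![1, 0, 0; 0, 1, 0; 0, 0, 1]),
    (2, !![1, 0, 0; 0, 1, 0; 0, 0, 1], !![1, 0, 0; 0, 1, 0; 0, 0, 1]),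
    (2, !![2, 0, 0; 0, 2, 0; 0, 0, 1], !![2, 0, 0; 0, 2, 0; 0, 0, 1]),
    (1, !![1, 0, 0; 0, 1, 1; 0, 0, 1], !![1, 0, 0; 0, 1, 2; 0, 0, 1]),
    (2, !![1, 0, 0; 0, 1, 1; 0, 0, 1], !![1, 0, 0; 0, 1, 2; 0, 0, 1]),
    (2, !![2, 0, 0; 0, 2, 2; 0, 0, 1], !![2, 0, 0; 0, 2, 2; 0, 0, 1]),
    (1, !![1, 0, 0; 0, 1, 2; 0, 0, 1], !![1, 0, 0; 0, 1, 1; 0, 0, 1]),
    (2, !![1, 0, 0; 0, 1, 2; 0, 0, 1], !![1, 0, 0; 0, 1, 1; 0, 0, 1]),
    (2, !![2, 0, 0; 0, 2, 1; 0, 0, 1], !![2, 0, 0; 0, 2, 1; 0, 0, 1]),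
    (1, !![1, 0, 0; 0, 2, 0; 0, 0, 2], !![1, 0, 0; 0, 2, 0; 0, 0, 2]),
    (2, !![1, 0, 0; 0, 2, 0; 0, 0, 2], !![1, 0, 0; 0, 2, 0; 0, 0, 2]),
    (2, !![2, 0, 0; 0, 1, 0; 0, 0, 2], !![2, 0, 0; 0, 1, 0; 0, 0, 2]),
    (1, !![1, 0, 0; 0, 2, 1; 0, 0, 2], !![1, 0, 0; 0, 2, 2; 0, 0, 2]),
    (2, !![1, 0, 0; 0, 2, 1; 0, 0, 2], !![1, 0, 0; 0, 2, 2; 0, 0, 2]),
    (2, !![2, 0, 0; 0, 1, 2; 0, 0, 2], !![2, 0, 0; 0, 1, 2; 0, 0, 2]),
    (1, !![1, 0, 0; 0, 2, 2; 0, 0, 2], !![1, 0, 0; 0, 2, 1; 0, 0, 2]),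
    (2, !![1, 0, 0; 0, 2, 2; 0, 0, 2], !![1, 0, 0; 0, 2, 1; 0, 0, 2]),
    (2, !![2, 0, 0; 0, 1, 1; 0, 0, 2], !![2, 0, 0; 0, 1, 1; 0, 0, 2])]

def uniCode (p : K × K × K) : ℕ := p.1.val * 9 + p.2.1.val * 3 + p.2.2.val

def uniEntry (p : K × K × K) : Fin 3 × M3 × M3 := uniConj.getD (uniCode p) (0, 1, 1)

theorem uniEntry_spec : ∀ p,
    (uniEntry p).2.1 * (uniEntry p).2.2 = 1 ∧ (uniEntry p).2.2 * (uniEntry p).2.1 = 1 ∧
      det3 (uniEntry p).2.1 = 1 ∧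
      (uniEntry p).2.1 * uni p.1 p.2.1 p.2.2 =
        (jordan (uniEntry p).1).val * (uniEntry p).2.1 := by
  decide +kernel

theorem good_gel (j : Fin 3) (w : V6) (hv : gel j w * gel j w * gel j w = 1) : Good (gel j w) := by
  fin_cases j
  exacts [good_coset0 w hv, good_coset1 w hv, good_coset2 w hv]

/-- Elements of the Sylow subgroup. -/
def uEl (p : (K × K × K) × V6) : O7 := lO (uniU p.1) * rO p.2

theorem good_uEl (p : (K × K × K) × V6) (h3 : uEl p * uEl p * uEl p = 1) : Good (uEl p) := by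
  obtain ⟨q, v⟩ := p
  obtain ⟨h1, h2, hd, hc⟩ := uniEntry_spec q
  set j := (uniEntry q).1
  set c := mkU _ _ h1 h2 with hcdef
  have hcu : c * uniU q = jordan j * c := units_ext_of_val hc
  have e : lO c * uEl (q, v) * (lO c)⁻¹ = gel j (act c.val v) := by
    rw [gel, uEl, ← lO_conj_rO, ← mul_assoc, ← map_mul, hcu, map_mul]
    group
  refine Good.of_conj (lO_mem_Om (u := c) ((det3_eq _).trans hd)) e ?_
  have hv : gel j (act c.val v) * gel j (act c.val v) * gel j (act c.val v) = 1 := by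
    rw [← e]
    calc lO c * uEl (q, v) * (lO c)⁻¹ * (lO c * uEl (q, v) * (lO c)⁻¹) *
          (lO c * uEl (q, v) * (lO c)⁻¹)
        = lO c * (uEl (q, v) * uEl (q, v) * uEl (q, v)) * (lO c)⁻¹ := by group
      _ = 1 := by rw [h3, mul_one, mul_inv_cancel]
  exact good_gel j _ hv

theorem uEl_mul (p q : (K × K × K) × V6) : ∃ r, uEl p * uEl q = uEl r := by
  obtain ⟨⟨x, y, z⟩, v⟩ := p
  obtain ⟨⟨x', y', z'⟩, w⟩ := q
  refine ⟨((x + x', y' + x * z' + y, z' + z),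
    rmul (act (uniU (x', y', z')).inv v) w), ?_⟩
  have hu : uniU (x + x', y' + x * z' + y, z' + z) = uniU (x, y, z) * uniU (x', y', z') := by
    apply units_ext_of_val
    change uni _ _ _ = uni x y z * uni x' y' z'
    ext i j
    fin_cases i <;> fin_cases j <;>
      simp [uni, Matrix.mul_apply, Fin.sum_univ_three] <;> ring
  have h1 := lO_conj_rO (uniU (x', y', z'))⁻¹ v
  rw [map_inv, inv_inv] at h1
  change _ = rO (act (uniU (x', y', z')).inv v) at h1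
  rw [uEl, uEl, uEl, hu, map_mul, ← rO_mul, ← h1]
  group

theorem uEl_injective : Function.Injective uEl := by
  rintro ⟨⟨x, y, z⟩, ⟨a0, a1, a2, s0, s1, s2⟩⟩ ⟨⟨x', y', z'⟩, ⟨b0, b1, b2, t0, t1, t2⟩⟩ h
  have hm : lMat (uniU (x, y, z)).val (uniU (x, y, z)).inv * rMat (a0, a1, a2, s0, s1, s2) =
      lMat (uniU (x', y', z')).val (uniU (x', y', z')).inv * rMat (b0, b1, b2, t0, t1, t2) :=
    congrArg (fun g : O7 => ((g : Matrix.GeneralLinearGroup I7 K) : M7)) h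
  have f := fun i k => congrFun (congrFun hm i) k
  have e1 := f (.inr (.inl 0)) (.inr (.inl 1))
  have e2 := f (.inr (.inl 0)) (.inr (.inl 2))
  have e3 := f (.inr (.inl 1)) (.inr (.inl 2))
  simp [lMat, rMat, uniU, mkU, uni, Matrix.mul_apply, Fintype.sum_sum_type,
    Fin.sum_univ_three] at e1 e2 e3
  subst e1 e2 e3
  have hr : rO (a0, a1, a2, s0, s1, s2) = rO (b0, b1, b2, t0, t1, t2) := mul_left_cancel h
  have hm' : rMat (a0, a1, a2, s0, s1, s2) = rMat (b0, b1, b2, t0, t1, t2) :=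
    congrArg (fun g : O7 => ((g : Matrix.GeneralLinearGroup I7 K) : M7)) hr
  have g := fun i k => congrFun (congrFun hm' i) k
  have h0 := g (.inl ()) (.inr (.inr 0))
  have h1 := g (.inl ()) (.inr (.inr 1))
  have h2 := g (.inl ()) (.inr (.inr 2))
  have u0 := g (.inr (.inl 0)) (.inr (.inr 1))
  have u1 := g (.inr (.inl 0)) (.inr (.inr 2))
  have u2 := g (.inr (.inl 1)) (.inr (.inr 2))
  simp [rMat, vecA, blockM, skewS] at h0 h1 h2 u0 u1 u2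
  subst h0 h1 h2
  simp_all

theorem uEl_mem_Om (p : (K × K × K) × V6) : uEl p ∈ Om := by
  refine mul_mem (lO_mem_Om ?_) (rO_mem_Om _)
  rw [det3_eq]
  obtain ⟨⟨x, y, z⟩, v⟩ := p
  simp [det3, uniU, mkU, uni]

/-- The Sylow three-subgroup of `Ω`. -/
def sylU : Subgroup O7 :=
  Subgroup.closure (Set.range uEl)

theorem coe_sylU : (sylU : Set O7) = Set.range uEl := by
  refine Set.Subset.antisymm (fun g hg => ?_) Subgroup.subset_closure
  have h1 : (1 : O7) ∈ Set.range uEl := ⟨((0, 0, 0), (0, 0, 0, 0, 0, 0)), by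
    rw [uEl, rO_zero, mul_one, show uniU ((0, 0, 0) : K × K × K) = 1 from
      units_ext_of_val (by decide +kernel), map_one]⟩
  let M : Submonoid O7 :=
    { carrier := Set.range uEl
      one_mem' := h1
      mul_mem' := by
        rintro _ _ ⟨p, rfl⟩ ⟨q, rfl⟩
        obtain ⟨r, hr⟩ := uEl_mul p q
        exact ⟨r, hr.symm⟩ }
  change g ∈ M
  rw [SetLike.mem_coe, sylU, ← Subgroup.mem_toSubmonoid, Subgroup.closure_toSubmonoid_of_finite] at hg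
  exact Submonoid.closure_le.2 (le_refl _) hg

theorem card_sylU : Nat.card sylU = 3 ^ 9 := by
  rw [← SetLike.coe_sort_coe, coe_sylU, Nat.card_range_of_injective uEl_injective]
  simp [Nat.card_prod]

theorem good_of_cube (g : O7) (hg : g ∈ Om) (h3 : g * g * g = 1) : Good g := by
  let U : Subgroup Om := sylU.subgroupOf Om
  have hle : sylU ≤ Om := (Subgroup.closure_le _).2 (by rintro _ ⟨p, rfl⟩; exact uEl_mem_Om p)
  have hU : Nat.card U = 3 ^ 9 := by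
    rw [Nat.card_congr (Subgroup.subgroupOfEquivOfLe hle).toEquiv, card_sylU]
  haveI : Fact (Nat.Prime 3) := ⟨Nat.prime_three⟩
  have hfact : (3 ^ 9 * 232960).factorization 3 = 9 := by
    rw [Nat.factorization_mul (by norm_num) (by norm_num), Finsupp.add_apply,
      Nat.Prime.factorization_pow Nat.prime_three,
      Nat.factorization_eq_zero_of_not_dvd (by norm_num)]
    simp
  let P : Sylow 3 Om := Sylow.ofCard U (by rw [hU, card_Om, hfact])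
  let x : Om := ⟨g, hg⟩
  have hx : IsPGroup 3 (Subgroup.zpowers x) := by
    refine IsPGroup.iff_card.2 ?_
    have hd : orderOf x ∣ 3 := orderOf_dvd_of_pow_eq_one (by
      apply Subtype.ext
      simpa [pow_succ] using h3)
    rw [Nat.card_zpowers]
    rcases (Nat.dvd_prime Nat.prime_three).1 hd with h | h
    · exact ⟨0, by rw [h, pow_zero]⟩
    · exact ⟨1, by rw [h, pow_one]⟩
  obtain ⟨Q, hQ⟩ := hx.exists_le_sylow
  obtain ⟨h, hh⟩ := MulAction.exists_smul_eq Om Q P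
  have hmem : h * x * h⁻¹ ∈ U := by
    have : MulAut.conj h x ∈ (h • Q : Sylow 3 Om).toSubgroup :=
      Subgroup.smul_mem_pointwise_smul _ (MulAut.conj h) _ (hQ (Subgroup.mem_zpowers x))
    rw [hh] at this
    simpa [P] using this
  rw [Subgroup.mem_subgroupOf, ← SetLike.mem_coe, coe_sylU] at hmem
  obtain ⟨p, hp⟩ := hmem
  refine Good.of_conj h.2 (g' := uEl p) (by rw [hp]; rfl) (good_uEl p ?_)
  rw [hp]
  calc (h : O7) * g * (h : O7)⁻¹ * ((h : O7) * g * (h : O7)⁻¹) * ((h : O7) * g * (h : O7)⁻¹)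
      = (h : O7) * (g * g * g) * (h : O7)⁻¹ := by group
    _ = 1 := by rw [h3, mul_one, mul_inv_cancel]

end Cfsg.Agent.H18.O7
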